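import Mathlib
import Cfsg.Agent.Lib.Helper70.BG.S1421Defs

/-!
# S1421 (Bender–Glauberman 12.12), package F (helper94, for helper70's project)

Frobenius fixed points via a norm product.  Also the conjugation endomorphisms `cjN` of a
subgroup by elements of its normalizer, and the norm lemma `cjN_norm_eq_one`.
-/

set_option autoImplicit false

namespace Cfsg.Agent.Lib.Helper94.BG

open Finset

universe u

section conj

variable {G : Type u} [Group G]

/-- Conjugation by an element of the normalizer of `W`, as an endomorphism of `W`. -/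
def cjN (W : Subgroup G) (g : Subgroup.normalizer (W : Set G)) : W →* W where
  toFun w := ⟨(g : G) * (w : G) * (g : G)⁻¹,
    (Subgroup.mem_normalizer_iff.mp g.2 (w : G)).mp w.2⟩
  map_one' := Subtype.ext (by simp)
  map_mul' a b := Subtype.ext (by simp [mul_assoc])

theorem cjN_coe (W : Subgroup G) (g : Subgroup.normalizer (W : Set G)) (w : W) :
    ((cjN W g w : W) : G) = (g : G) * (w : G) * (g : G)⁻¹ := rfl

theorem cjN_one (W : Subgroup G) (w : W) : cjN W 1 w = w :=
  Subtype.ext (by simp [cjN_coe])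

theorem cjN_mul (W : Subgroup G) (g h : Subgroup.normalizer (W : Set G)) (w : W) :
    cjN W (g * h) w = cjN W g (cjN W h w) :=
  Subtype.ext (by simp [cjN_coe, mul_assoc])

/-- A fixed point of `cjN W g` lies in `W ∩ C(g)`. -/
theorem eq_one_of_cjN_fixed (W : Subgroup G) (g : Subgroup.normalizer (W : Set G))
    (hfix : W ⊓ Subgroup.centralizer ({(g : G)} : Set G) = ⊥) (w : W) (h : cjN W g w = w) :
    w = 1 := by
  have h1 : (g : G) * (w : G) * (g : G)⁻¹ = (w : G) := congrArg Subtype.val h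
  have h2 : (w : G) ∈ W ⊓ Subgroup.centralizer ({(g : G)} : Set G) := by
    refine Subgroup.mem_inf.mpr ⟨w.2, ?_⟩
    rw [Subgroup.mem_centralizer_iff]
    intro k hk
    rw [Set.mem_singleton_iff] at hk
    rw [hk]
    calc (g : G) * (w : G) = (g : G) * (w : G) * (g : G)⁻¹ * (g : G) := by group
      _ = (w : G) * (g : G) := by rw [h1]
  rw [hfix, Subgroup.mem_bot] at h2
  exact Subtype.ext h2

end conj

section norm

variable {V : Type*} [CommGroup V]

/-- If `φ (f i) = f (i + 1)` and `f q = f 0` then `φ` fixes `∏_{i<q} f i`. -/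
theorem map_prod_range_cyclic (φ : V →* V) (f : ℕ → V) (q : ℕ) (h1 : ∀ i, φ (f i) = f (i + 1))
    (h2 : f q = f 0) : φ (∏ i ∈ range q, f i) = ∏ i ∈ range q, f i := by
  rw [map_prod]
  simp_rw [h1]
  have e1 := Finset.prod_range_succ' f q
  have e2 := Finset.prod_range_succ f q
  rw [e2, h2] at e1
  exact (mul_right_cancel e1).symm

end norm

section main

open scoped IsMulCommutative

variable {G : Type u} [Group G]

/-- The norm lemma: if `g` normalizes the abelian group `W`, `g ^ q` centralizes `W` and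
`C_W(g) = 1`, then `∏_{i<q} g^i • u = 1` for all `u ∈ W`. -/
theorem cjN_norm_eq_one (W : Subgroup G) [IsMulCommutative W]
    (g : Subgroup.normalizer (W : Set G)) (q : ℕ)
    (hq : ∀ w : W, cjN W (g ^ q) w = w)
    (hfix : W ⊓ Subgroup.centralizer ({(g : G)} : Set G) = ⊥) (u : W) :
    ∏ i ∈ range q, cjN W (g ^ i) u = 1 := by
  apply eq_one_of_cjN_fixed W g hfix
  apply map_prod_range_cyclic (cjN W g) (fun i => cjN W (g ^ i) u) q
  · intro i
    rw [← cjN_mul, ← pow_succ']
  · show cjN W (g ^ q) u = cjN W (g ^ 0) u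
    rw [hq, pow_zero, cjN_one]

/-- Package F of helper70's project S1421. -/
theorem lemF : Cfsg.Agent.Lib.Helper70.BG21.LemF.{u} := by
  intro G _ _ A W x q hq hAc hA1 hxA hxq hAx hWc hW1 hAW hxW hcop hWA hcon
  classical
  have := hWc
  have : Fintype A := Fintype.ofFinite A
  -- the elements of the normalizer of `W`
  obtain ⟨x', hx'⟩ : ∃ x' : Subgroup.normalizer (W : Set G), (x' : G) = x := ⟨⟨x, hxW⟩, rfl⟩
  have hx'q : x' ^ q = 1 := Subtype.ext (by simpa [hx'] using hxq)
  obtain ⟨ι, hι⟩ : ∃ ι : A →* Subgroup.normalizer (W : Set G), ∀ a : A, (ι a : G) = (a : G) :=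
    ⟨Subgroup.inclusion hAW, fun a => rfl⟩
  -- the maps `d_i`
  have hxiA : ∀ i : ℕ, x ^ i ∈ Subgroup.normalizer (A : Set G) := fun i => Subgroup.pow_mem _ hxA i
  have hDmem : ∀ (i : ℕ) (a : A), (a : G) * (x ^ i * (a : G)⁻¹ * (x ^ i)⁻¹) ∈ A := by
    intro i a
    exact A.mul_mem a.2 ((Subgroup.mem_normalizer_iff.mp (hxiA i) _).mp (A.inv_mem a.2))
  obtain ⟨D, hD⟩ : ∃ D : ℕ → A → A, ∀ i a, ((D i a : A) : G) =
      (a : G) * (x ^ i * (a : G)⁻¹ * (x ^ i)⁻¹) :=
    ⟨fun i a => ⟨_, hDmem i a⟩, fun i a => rfl⟩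
  -- `d_i` is injective for `0 < i < q`
  have hDinj : ∀ i : ℕ, 0 < i → i < q → Function.Injective (D i) := by
    intro i hi0 hiq a b hab
    have h1 : (a : G) * (x ^ i * (a : G)⁻¹ * (x ^ i)⁻¹) = (b : G) * (x ^ i * (b : G)⁻¹ * (x ^ i)⁻¹) := by
      rw [← hD, ← hD, hab]
    have h2 : ((b : G)⁻¹ * (a : G)) * x ^ i = x ^ i * ((b : G)⁻¹ * (a : G)) := by
      have h3 : (a : G) * x ^ i * (a : G)⁻¹ = (b : G) * x ^ i * (b : G)⁻¹ := by
        have e1 : (a : G) * x ^ i * (a : G)⁻¹ =
            (a : G) * (x ^ i * (a : G)⁻¹ * (x ^ i)⁻¹) * x ^ i := by group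
        have e2 : (b : G) * x ^ i * (b : G)⁻¹ =
            (b : G) * (x ^ i * (b : G)⁻¹ * (x ^ i)⁻¹) * x ^ i := by group
        rw [e1, e2, h1]
      calc ((b : G)⁻¹ * (a : G)) * x ^ i
          = (b : G)⁻¹ * ((a : G) * x ^ i * (a : G)⁻¹) * (a : G) := by group
        _ = (b : G)⁻¹ * ((b : G) * x ^ i * (b : G)⁻¹) * (a : G) := by rw [h3]
        _ = x ^ i * ((b : G)⁻¹ * (a : G)) := by group
    have hcopr : Nat.Coprime i q :=
      (Nat.coprime_comm.mp ((Nat.Prime.coprime_iff_not_dvd hq).mpr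
        (Nat.not_dvd_of_pos_of_lt hi0 hiq)))
    obtain ⟨j, -, hj⟩ := Nat.exists_mul_mod_eq_one_of_coprime hcopr hq.one_lt
    have h4 : x = (x ^ i) ^ j := by
      rw [← pow_mul, pow_eq_pow_mod (i * j) hxq, hj, pow_one]
    have h5 : Commute ((b : G)⁻¹ * (a : G)) x := by
      rw [h4]
      exact (show Commute ((b : G)⁻¹ * (a : G)) (x ^ i) from h2).pow_right j
    have h6 : (b : G)⁻¹ * (a : G) ∈ A ⊓ Subgroup.centralizer ({x} : Set G) := by
      refine Subgroup.mem_inf.mpr ⟨A.mul_mem (A.inv_mem b.2) a.2, ?_⟩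
      rw [Subgroup.mem_centralizer_iff]
      intro k hk
      rw [Set.mem_singleton_iff] at hk
      rw [hk]
      exact h5.eq.symm
    rw [hAx, Subgroup.mem_bot] at h6
    apply Subtype.ext
    calc (a : G) = (b : G) * ((b : G)⁻¹ * (a : G)) := by group
      _ = (b : G) := by rw [h6, mul_one]
  -- the `A`-norm of an element of `W` is trivial
  have hT : ∀ w : W, ∏ b : A, cjN W (ι b) w = 1 := by
    intro w
    have hfixed : ∀ c : A, cjN W (ι c) (∏ b : A, cjN W (ι b) w) = ∏ b : A, cjN W (ι b) w := by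
      intro c
      rw [map_prod]
      have e : ∀ b : A, cjN W (ι c) (cjN W (ι b) w) = cjN W (ι (c * b)) w := by
        intro b
        rw [map_mul, cjN_mul]
      simp_rw [e]
      exact Fintype.prod_equiv (Equiv.mulLeft c) _ _ (fun b => rfl)
    have hmem : ((∏ b : A, cjN W (ι b) w : W) : G) ∈ W ⊓ Subgroup.centralizer (A : Set G) := by
      refine Subgroup.mem_inf.mpr ⟨(∏ b : A, cjN W (ι b) w : W).2, ?_⟩
      rw [Subgroup.mem_centralizer_iff]
      intro c hc
      have h1 := congrArg Subtype.val (hfixed ⟨c, hc⟩)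
      rw [cjN_coe, hι] at h1
      calc c * ((∏ b : A, cjN W (ι b) w : W) : G)
          = c * ((∏ b : A, cjN W (ι b) w : W) : G) * c⁻¹ * c := by group
        _ = ((∏ b : A, cjN W (ι b) w : W) : G) * c := by rw [h1]
    rw [hWA, Subgroup.mem_bot] at hmem
    exact Subtype.ext hmem
  -- every element of `W` has order dividing `|A|`
  have key : ∀ u : W, u ^ Nat.card A = 1 := by
    intro u
    -- the norm with respect to a conjugate of `x`
    have hconj : ∀ a : A, ∏ i ∈ range q, cjN W (ι (D i a)) (cjN W (x' ^ i) u) = 1 := by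
      intro a
      have hyq : (ι a * x' * (ι a)⁻¹) ^ q = 1 := by
        rw [conj_pow, hx'q]; group
      have hyfix : W ⊓ Subgroup.centralizer
          ({((ι a * x' * (ι a)⁻¹ : Subgroup.normalizer (W : Set G)) : G)} : Set G) = ⊥ := by
        rw [eq_bot_iff]
        intro w hw
        obtain ⟨hwW, hwC⟩ := Subgroup.mem_inf.mp hw
        rw [Subgroup.mem_centralizer_iff] at hwC
        have h1 := hwC _ (Set.mem_singleton _)
        have h2 : (a : G)⁻¹ * w * (a : G) ∈ W ⊓ Subgroup.centralizer ({x} : Set G) := by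
          refine Subgroup.mem_inf.mpr ⟨?_, ?_⟩
          · have := (Subgroup.mem_normalizer_iff.mp (Subgroup.inv_mem _ (hAW a.2)) w).mp hwW
            simpa using this
          · rw [Subgroup.mem_centralizer_iff]
            intro k hk
            rw [Set.mem_singleton_iff] at hk
            rw [hk]
            have h3 : (a : G) * x * (a : G)⁻¹ * w = w * ((a : G) * x * (a : G)⁻¹) := by
              simpa [hι, hx'] using h1
            calc x * ((a : G)⁻¹ * w * (a : G))
                = (a : G)⁻¹ * ((a : G) * x * (a : G)⁻¹ * w) * (a : G) := by group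
              _ = (a : G)⁻¹ * (w * ((a : G) * x * (a : G)⁻¹)) * (a : G) := by rw [h3]
              _ = (a : G)⁻¹ * w * (a : G) * x := by group
        rw [hcon, Subgroup.mem_bot] at h2
        rw [Subgroup.mem_bot]
        calc w = (a : G) * ((a : G)⁻¹ * w * (a : G)) * (a : G)⁻¹ := by group
          _ = 1 := by rw [h2]; group
      have h1 := cjN_norm_eq_one W (ι a * x' * (ι a)⁻¹) q
        (fun w => by rw [hyq, cjN_one]) hyfix u
      have h2 : ∀ i : ℕ, cjN W ((ι a * x' * (ι a)⁻¹) ^ i) u =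
          cjN W (ι (D i a)) (cjN W (x' ^ i) u) := by
        intro i
        rw [← cjN_mul]
        have e : (ι a * x' * (ι a)⁻¹) ^ i = ι (D i a) * x' ^ i := by
          apply Subtype.ext
          rw [conj_pow]
          simp only [Subgroup.coe_mul, Subgroup.coe_inv, Subgroup.coe_pow, hι, hD, hx']
          group
        rw [e]
      simp_rw [h2] at h1
      exact h1
    have h1 : ∏ a : A, ∏ i ∈ range q, cjN W (ι (D i a)) (cjN W (x' ^ i) u) = 1 :=
      Finset.prod_eq_one (fun a _ => hconj a)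
    rw [Finset.prod_comm] at h1
    obtain ⟨q', rfl⟩ : ∃ q' : ℕ, q = q' + 1 := ⟨q - 1, (Nat.succ_pred_eq_of_pos hq.pos).symm⟩
    rw [Finset.prod_range_succ'] at h1
    have h2 : ∏ i ∈ range q', ∏ a : A, cjN W (ι (D (i + 1) a)) (cjN W (x' ^ (i + 1)) u) = 1 := by
      apply Finset.prod_eq_one
      intro i hi
      rw [Finset.mem_range] at hi
      have hbij : Function.Bijective (D (i + 1)) :=
        Finite.injective_iff_bijective.mp (hDinj (i + 1) (Nat.succ_pos i) (by omega))
      rw [← hT (cjN W (x' ^ (i + 1)) u)]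
      exact Function.Bijective.prod_comp hbij (fun b => cjN W (ι b) (cjN W (x' ^ (i + 1)) u))
    have h3 : ∀ a : A, cjN W (ι (D 0 a)) (cjN W (x' ^ 0) u) = u := by
      intro a
      have e : D 0 a = 1 := by
        apply Subtype.ext
        rw [hD]
        simp
      rw [e, map_one, cjN_one, pow_zero, cjN_one]
    rw [h2, one_mul] at h1
    simp_rw [h3] at h1
    rw [Finset.prod_const, Finset.card_univ, ← Nat.card_eq_fintype_card] at h1
    exact h1
  -- hence `W = 1`
  apply hW1
  rw [Subgroup.eq_bot_iff_forall]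
  intro w hw
  have h1 : (⟨w, hw⟩ : W) ^ Nat.card A = 1 := key ⟨w, hw⟩
  have h2 : orderOf (⟨w, hw⟩ : W) ∣ Nat.card A := orderOf_dvd_of_pow_eq_one h1
  have h3 : orderOf (⟨w, hw⟩ : W) ∣ Nat.card W := orderOf_dvd_natCard _
  have h4 : orderOf (⟨w, hw⟩ : W) = 1 := Nat.eq_one_of_dvd_coprimes hcop h3 h2
  have h5 : (⟨w, hw⟩ : W) = 1 := orderOf_eq_one_iff.mp h4
  exact congrArg Subtype.val h5

end main

end Cfsg.Agent.Lib.Helper94.BG
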