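import Mathlib
import Cfsg.Agent.Lib.Helper70.BG.S1421Defs
import Cfsg.Agent.Lib.Helper94.BG.S1421F

/-!
# S1421 (Bender–Glauberman 12.12), package C (helper94, for helper70's project)

`A ≠ 1` abelian of order prime to `q`; `z, y` commuting elements normalizing `A` with
`z ^ q, y ^ q ∈ C(A)` and `C_A(y) = 1`.  Then `C_A(z y^j) ≠ 1` for some `j < q`.
-/

set_option autoImplicit false

namespace Cfsg.Agent.Lib.Helper94.BG

open Finset

universe u

/-- Multiplication by `k` is a permutation of the residues mod a prime `q`, for `0 < k < q`. -/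
theorem prod_range_mul_mod {V : Type*} [CommMonoid V] (F : ℕ → V) (q k : ℕ) (hq : q.Prime)
    (hk0 : 0 < k) (hkq : k < q) :
    ∏ j ∈ range q, F (j * k % q) = ∏ j ∈ range q, F j := by
  have hinj : ∀ j1 ∈ range q, ∀ j2 ∈ range q, j1 * k % q = j2 * k % q → j1 = j2 := by
    intro j1 hj1 j2 hj2 h
    rw [Finset.mem_range] at hj1 hj2
    have hcop : Nat.gcd q k = 1 :=
      (Nat.Prime.coprime_iff_not_dvd hq).mpr (Nat.not_dvd_of_pos_of_lt hk0 hkq)
    have h1 : j1 ≡ j2 [MOD q] := Nat.ModEq.cancel_right_of_coprime hcop h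
    exact Nat.ModEq.eq_of_lt_of_lt h1 hj1 hj2
  have himg : (range q).image (fun j => j * k % q) = range q := by
    apply Finset.eq_of_subset_of_card_le
    · intro m hm
      rw [Finset.mem_image] at hm
      obtain ⟨j, -, rfl⟩ := hm
      exact Finset.mem_range.mpr (Nat.mod_lt _ hq.pos)
    · rw [Finset.card_image_of_injOn (fun j1 hj1 j2 hj2 h => hinj j1 hj1 j2 hj2 h)]
  calc ∏ j ∈ range q, F (j * k % q)
      = ∏ m ∈ (range q).image (fun j => j * k % q), F m :=
        (Finset.prod_image (fun j1 hj1 j2 hj2 h => hinj j1 hj1 j2 hj2 h)).symm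
    _ = ∏ j ∈ range q, F j := by rw [himg]

section

open scoped IsMulCommutative

variable {G : Type u} [Group G]

theorem cjN_pow_fixed (W : Subgroup G) (h : Subgroup.normalizer (W : Set G))
    (hfix : ∀ w : W, cjN W h w = w) (j : ℕ) (w : W) : cjN W (h ^ j) w = w := by
  induction j with
  | zero => rw [pow_zero, cjN_one]
  | succ j ih => rw [pow_succ, cjN_mul, hfix, ih]

theorem cjN_pow_mod (W : Subgroup G) (h : Subgroup.normalizer (W : Set G)) (q : ℕ)
    (hfix : ∀ w : W, cjN W (h ^ q) w = w) (m : ℕ) (w : W) :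
    cjN W (h ^ m) w = cjN W (h ^ (m % q)) w := by
  conv_lhs => rw [← Nat.mod_add_div m q]
  rw [pow_add, cjN_mul, pow_mul, cjN_pow_fixed W (h ^ q) hfix]

/-- an element of the normalizer whose value centralizes `W` acts trivially -/
theorem cjN_eq_self_of_mem_centralizer (W : Subgroup G) (h : Subgroup.normalizer (W : Set G))
    (hc : (h : G) ∈ Subgroup.centralizer (W : Set G)) (w : W) : cjN W h w = w := by
  apply Subtype.ext
  rw [cjN_coe]
  have h1 := (Subgroup.mem_centralizer_iff.mp hc) w w.2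
  rw [← h1]
  group

/-- Package C of helper70's project S1421. -/
theorem lemC : Cfsg.Agent.Lib.Helper70.BG21.LemC.{u} := by
  intro G _ _ A z y q hq hAc hA1 hcop hzA hyA hzy hzq hyq hAy
  classical
  by_contra hcon
  have hcon' : ∀ j : ℕ, j < q → A ⊓ Subgroup.centralizer ({z * y ^ j} : Set G) = ⊥ := by
    intro j hj
    by_contra h
    exact hcon ⟨j, hj, h⟩
  have := hAc
  obtain ⟨z', hz'⟩ : ∃ z' : Subgroup.normalizer (A : Set G), (z' : G) = z := ⟨⟨z, hzA⟩, rfl⟩
  obtain ⟨y', hy'⟩ : ∃ y' : Subgroup.normalizer (A : Set G), (y' : G) = y := ⟨⟨y, hyA⟩, rfl⟩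
  have hcomm : Commute z' y' := Subtype.ext (by simpa [hz', hy'] using hzy)
  have hzfix : ∀ w : A, cjN A (z' ^ q) w = w := fun w =>
    cjN_eq_self_of_mem_centralizer A (z' ^ q) (by simpa [hz'] using hzq) w
  have hyfix : ∀ w : A, cjN A (y' ^ q) w = w := fun w =>
    cjN_eq_self_of_mem_centralizer A (y' ^ q) (by simpa [hy'] using hyq) w
  have hAy' : A ⊓ Subgroup.centralizer ({(y' : G)} : Set G) = ⊥ := by rw [hy']; exact hAy
  have key : ∀ u : A, u ^ q = 1 := by
    intro u
    have hnorm : ∀ j ∈ range q,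
        ∏ k ∈ range q, cjN A (z' ^ k) (cjN A (y' ^ (j * k)) u) = 1 := by
      intro j hj
      rw [Finset.mem_range] at hj
      have hfix : A ⊓ Subgroup.centralizer
          ({((z' * y' ^ j : Subgroup.normalizer (A : Set G)) : G)} : Set G) = ⊥ := by
        have := hcon' j hj
        simpa [hz', hy'] using this
      have hgq : ∀ w : A, cjN A ((z' * y' ^ j) ^ q) w = w := by
        intro w
        rw [(hcomm.pow_right j).mul_pow, cjN_mul, ← pow_mul, mul_comm j q, pow_mul,
          cjN_pow_fixed A (y' ^ q) hyfix, hzfix]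
      have h1 := cjN_norm_eq_one A (z' * y' ^ j) q hgq hfix u
      have h2 : ∀ k : ℕ, cjN A ((z' * y' ^ j) ^ k) u =
          cjN A (z' ^ k) (cjN A (y' ^ (j * k)) u) := by
        intro k
        rw [(hcomm.pow_right j).mul_pow, cjN_mul, ← pow_mul]
      simp_rw [h2] at h1
      exact h1
    have h1 : ∏ j ∈ range q, ∏ k ∈ range q, cjN A (z' ^ k) (cjN A (y' ^ (j * k)) u) = 1 :=
      Finset.prod_eq_one hnorm
    rw [Finset.prod_comm] at h1
    have h2 : ∀ k ∈ range q, ∏ j ∈ range q, cjN A (z' ^ k) (cjN A (y' ^ (j * k)) u) =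
        if k = 0 then u ^ q else 1 := by
      intro k hk
      rw [Finset.mem_range] at hk
      split_ifs with hk0
      · subst hk0
        have e : ∀ j : ℕ, cjN A (z' ^ 0) (cjN A (y' ^ (j * 0)) u) = u := by
          intro j
          rw [pow_zero, cjN_one, mul_zero, pow_zero, cjN_one]
        simp_rw [e]
        rw [Finset.prod_const, Finset.card_range]
      · rw [← map_prod]
        have h3 : ∏ j ∈ range q, cjN A (y' ^ (j * k)) u = 1 := by
          have e : ∀ j : ℕ, cjN A (y' ^ (j * k)) u = cjN A (y' ^ (j * k % q)) u :=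
            fun j => cjN_pow_mod A y' q hyfix _ u
          simp_rw [e]
          rw [prod_range_mul_mod (fun m => cjN A (y' ^ m) u) q k hq (Nat.pos_of_ne_zero hk0) hk]
          exact cjN_norm_eq_one A y' q hyfix hAy' u
        rw [h3, map_one]
    rw [Finset.prod_congr rfl h2, Finset.prod_ite_eq' (range q) 0 (fun _ => u ^ q),
      if_pos (Finset.mem_range.mpr hq.pos)] at h1
    exact h1
  apply hA1
  rw [Subgroup.eq_bot_iff_forall]
  intro w hw
  have h1 : (⟨w, hw⟩ : A) ^ q = 1 := key ⟨w, hw⟩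
  have h2 : orderOf (⟨w, hw⟩ : A) ∣ q := orderOf_dvd_of_pow_eq_one h1
  have h3 : orderOf (⟨w, hw⟩ : A) ∣ Nat.card A := orderOf_dvd_natCard _
  have h4 : orderOf (⟨w, hw⟩ : A) = 1 := Nat.eq_one_of_dvd_coprimes hcop h3 h2
  have h5 : (⟨w, hw⟩ : A) = 1 := orderOf_eq_one_iff.mp h4
  exact congrArg Subtype.val h5

end

end Cfsg.Agent.Lib.Helper94.BG
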